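import Cfsg.Agent.H895.Pron.SuzG
import Cfsg.Agent.OrdDiv.Table
import Cfsg.Agent.S0000

/-!
# Row `Suz` of S2527, with the classification (helper895)
-/

set_option autoImplicit false

namespace Cfsg.Agent.H895.Pron.SuzTop

universe u

theorem base : Cfsg.Agent.H940.Eng.Base where
  table := Cfsg.Agent.OrdDiv.table
  known := fun S _ _ hS => by
    have := hS
    exact Cfsg.Agent.S0000.result (G := S)

/-- **row `Suz` of S2527** -/
theorem po_suz {K : Type u} [Group K] [Finite K] (h : Cfsg.Spor.IsoSuz K) : Cfsg.Agent.H408.Pron.PO K :=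
  Cfsg.Agent.H895.Pron.SuzG.po_suz_of base h

end Cfsg.Agent.H895.Pron.SuzTop
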